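import Mathlib
import Cfsg.Agent.Pres.CV2
import Cfsg.Agent.Chev.TwD4

/-! Two generators for the triality groups. -/

set_option autoImplicit false
set_option linter.unusedSectionVars false
set_option maxRecDepth 100000

namespace Cfsg.Agent.Chev.CV

open Cfsg.Lie StSys Cfsg.Agent.BN Tw
open Cfsg.Agent.Pres (exists_prim_sq mulR mem_mulR pow_split two_gen_of two_gen_map)

section
variable {D : ChevalleyDatum} [g : Good2 D] {F : Type*} [Field F] {G : Type*} [Group G] {S : StSys D F G}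
  {L : Subgroup G} {σ : Sym D} {T : Tw S σ}

/-- the product over an orbit of length three -/
noncomputable def tr3 (T : Tw S σ) (y : G) : G := y * (T.f y * T.f (T.f y))

theorem tr3_conj {n y : G} (hn : n ∈ T.Fx) (hy : y ∈ S.grp) : n * tr3 T y * n⁻¹ = tr3 T (n * y * n⁻¹) := by
  rw [tr3, tr3, f_conj hn hy, f_conj hn (f_mem hy), conj_mul, conj_mul]

theorem tr3_add {r : Rt D} (h : SO D r (σ.p r) ∧ SO D r (σ.p (σ.p r)) ∧ SO D (σ.p r) (σ.p (σ.p r))) (a b : F) :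
    tr3 T (S.x r (a + b)) = tr3 T (S.x r a) * tr3 T (S.x r b) := by
  rw [tr3, tr3, tr3, S.add, T.f_mul _ (S.x_mem_grp _ _) _ (S.x_mem_grp _ _),
    T.f_mul _ (f_mem (S.x_mem_grp _ _)) _ (f_mem (S.x_mem_grp _ _))]
  simp only [T.f_x]
  rw [(h.2.2.x S _ _).mul_mul_mul_comm, ((h.1.x S _ _).mul_right (h.2.1.x S _ _)).mul_mul_mul_comm]

theorem comm_pr {v : Rt D} (hv : ∀ s, 2 ≤ pr v s → s = v) {a y : G} (ha : a ∈ S.XS {s | 0 < pr v s})
    (hy : y ∈ S.XS {s | 0 < pr v s}) : a⁻¹ * y⁻¹ * a * y ∈ S.XS {v} := by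
  have e : {s | 0 < pr v s} = Hc fun j => pr v (sim j) := Set.ext fun s => by rw [mem_Hc, ph, ← pr_eq]; rfl
  rw [e] at ha hy
  exact S.XS_mono (fun s hs => hv s (by simpa [ph, ← pr_eq] using hs.2))
    (S.comm_lev' (uni_Hc _) (l := 1) ha (by rwa [(uni_Hc _).lev_one]))

theorem conj1' {r b v : Rt D} {C : ℤ} (h : b ≠ r ∧ b ≠ ng r ∧ D.commTerms r b = [((v : ℕ), C, 1, 1)]) (t u : F) :
    MulAut.conj (S.x r t) (S.x b u) = S.x b u * S.x v (C * t * u) := conj1 h t u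

end

attribute [local instance] good2D4

/-- the roots by number -/
abbrev rD (n : Fin 24) : Rt chevD4 := n

variable {K : Type*} [Field K] [Fintype K]

theorem two_3D4 {q : ℕ} (hq : IsPrimePow q) (hK : Fintype.card K = q ^ 3) :
    ∃ f : Fin 2 → twistedD4 K q, Subgroup.closure (Set.range f) = ⊤ := by
  obtain ⟨C⟩ := exists_CD4 hq hK
  obtain ⟨ζ, ζ0, z1, z2, z3⟩ := exists_prim_sq K
  have q2 := hq.two_le
  have hz : ζ ^ 4 ≠ 1 := fun h => by
    have := orderOf_le_of_pow_eq_one (by norm_num) h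
    have := Nat.pow_le_pow_left q2 3
    omega
  have ζ1 : C.ψ ζ ≠ 0 := (map_ne_zero _).mpr ζ0
  have ζ2 : C.ψ (C.ψ ζ) ≠ 0 := (map_ne_zero _).mpr ζ1
  obtain ⟨n, n1, n2⟩ := cox_n C.isTw [nD4 0, nD4 2, nD4 3, nD4 1] (by decide +kernel)
  have hX := C.three_mem (r := rD 18) (s := rD 13) (v := rD 12) (by decide +kernel)
  have hh := C.h_three_mem ζ
  have h3 := gl_R3 (D := chevD4) (F := K)
  have hr := C.one_mem (r := rD 14) (by decide +kernel) (map_one _)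
  have gen := C.gen
  have o0 := C.o0.1
  have o1 := C.o1.1
  have le := C.isTw.le
  have hT := C.hT
  have φf := @C.φ_fix
  rw [show sim (nD4 0) = rD 18 by decide +kernel, show sim (nD4 2) = rD 13 by decide +kernel,
    show sim (nD4 3) = rD 12 by decide +kernel] at o0 hh
  rw [show sim (nD4 1) = rD 14 by decide +kernel] at o1
  obtain ⟨ψ, T, hψ, ψψ, hT'⟩ := C
  dsimp only at *
  clear hT'
  generalize twistedD4 K q = E at *
  generalize glSys chevD4 K = S at *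
  have nk : ∀ k, n ^ k ∈ T.Fx := fun k => pow_mem (le n1) k
  have tx : ∀ (r s v : Rt chevD4) (a b : ℤ), symD4a.p r = s ∧ symD4a.p s = v ∧ sgn (bit gED4a r) 1 = a ∧
      sgn (bit gED4a s) 1 = b → ∀ t, tr3 T (S.x r t) = S.x r t * (S.x s (a * ψ t) * S.x v (b * ψ (a * ψ t))) :=
    fun r s v a b h t => by rw [tr3, T.f_x, T.f_x, hT, hT, h.1, h.2.1, h.2.2.1, h.2.2.2]
  have hc := S.conj_hhh (rD 18) (rD 13) (rD 12) ζ0 ζ1 ζ2
  have hp : (S.h (rD 18) ζ * (S.h (rD 13) (ψ ζ) * S.h (rD 12) (ψ (ψ ζ)))) ^ Fintype.card K =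
      S.h (rD 18) ζ * (S.h (rD 13) (ψ ζ) * S.h (rD 12) (ψ (ψ ζ))) := by
    rw [Commute.mul_pow (Commute.mul_right (h3.h_comm _ _ ζ0 ζ1) (h3.h_comm _ _ ζ0 ζ2)), Commute.mul_pow (h3.h_comm _ _ ζ1 ζ2),
      h_pow h3 _ ζ0, h_pow h3 _ ζ1, h_pow h3 _ ζ2, FiniteField.pow_card, FiniteField.pow_card, FiniteField.pow_card]
  generalize S.h (rD 18) ζ * (S.h (rD 13) (ψ ζ) * S.h (rD 12) (ψ (ψ ζ))) = h at hh hc hp
  obtain ⟨X, hXd⟩ : ∃ X : K → _, ∀ t, X t = tr3 T (S.x (rD 18) t) := ⟨_, fun _ => rfl⟩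
  obtain ⟨Y, hYd⟩ : ∃ Y : K → _, ∀ t, Y t = tr3 T (S.x (rD 17) t) := ⟨_, fun _ => rfl⟩
  have hXe : ∀ t, X t = S.x (rD 18) t * (S.x (rD 13) (ψ t) * S.x (rD 12) (ψ (ψ t))) := fun t => by
    rw [hXd, tx _ (rD 13) (rD 12) 1 1 (by decide +kernel)]; simp
  have hYe : ∀ t, Y t = S.x (rD 17) t * (S.x (rD 20) (-ψ t) * S.x (rD 21) (-ψ (ψ t))) := fun t => by
    rw [hYd, tx _ (rD 20) (rD 21) (-1) 1 (by decide +kernel)]; simp
  simp only [← hXe] at hX o0
  have Xa : ∀ t u, X (t + u) = X t * X u := fun t u => by rw [hXd, hXd, hXd, tr3_add (by decide +kernel)]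
  have Ya : ∀ t u, Y (t + u) = Y t * Y u := fun t u => by rw [hYd, hYd, hYd, tr3_add (by decide +kernel)]
  have X0 : X 0 = 1 := by simp [hXe]
  have Y0 : Y 0 = 1 := by simp [hYe]
  have Xi : ∀ t, (X t)⁻¹ = X (-t) := fun t => inv_eq_of_mul_eq_one_right (by rw [← Xa, add_neg_cancel, X0])
  have hX2 : ∀ t, h * X t * h⁻¹ = X (ζ ^ 2 * t) := fun t => by
    rw [hXd, hXd, tr3_conj (le hh) (S.x_mem_grp _ _), hc, pr_self, show pr (rD 13) (rD 18) = 0 by decide +kernel,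
      show pr (rD 12) (rD 18) = 0 by decide +kernel]
    simp [zpow_ofNat]
  have hY2 : ∀ t, h * Y t * h⁻¹ = Y (ζ⁻¹ * (ψ ζ * ψ (ψ ζ)) * t) := fun t => by
    rw [hYd, hYd, tr3_conj (le hh) (S.x_mem_grp _ _), hc, show pr (rD 18) (rD 17) = -1 by decide +kernel,
      show pr (rD 13) (rD 17) = 1 by decide +kernel, show pr (rD 12) (rD 17) = 1 by decide +kernel]
    simp
  have cX : ∀ b, (b ≠ rD 18 ∧ b ≠ ng (rD 18) ∧ chevD4.commTerms (rD 18) b = []) ∧
      (b ≠ rD 13 ∧ b ≠ ng (rD 13) ∧ chevD4.commTerms (rD 13) b = []) ∧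
      (b ≠ rD 12 ∧ b ≠ ng (rD 12) ∧ chevD4.commTerms (rD 12) b = []) →
      ∀ t u, Commute (X t) (S.x b u) := fun b hb t u =>
    hXe t ▸ (S.commute_nil hb.1 _ _).mul_left ((S.commute_nil hb.2.1 _ _).mul_left (S.commute_nil hb.2.2 _ _))
  obtain ⟨w5, w1, w2⟩ := n2 5
  obtain ⟨d, d0, hd⟩ : ∃ d : K, d ≠ 0 ∧ S.x (rD 23) d ∈ E := by
    obtain ⟨c, c0, h4, -⟩ := w1.exists_conj (rD 14)
    refine ⟨c * 1, by simpa, ?_⟩
    rw [← show w5 • rD 14 = rD 23 from (w2 _).trans (by decide +kernel), ← h4]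
    exact mul_mem (mul_mem (pow_mem n1 5) hr) (inv_mem (pow_mem n1 5))
  refine two_gen_of (mul_mem hd (mul_mem (mul_mem (hX 1) hh) (inv_mem (hX 1)))) n1 fun L k1 k2 => ?_
  have c1 := (cX (rD 23) (by decide +kernel) 1 d).symm
  have c2 : Commute (S.x (rD 23) d) h := (mul_inv_eq_iff_eq_mul.mp (by
    rw [hc, show pr (rD 18) (rD 23) = 0 by decide +kernel, show pr (rD 13) (rD 23) = 0 by decide +kernel,
      show pr (rD 12) (rD 23) = 0 by decide +kernel]; simp)).symm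
  obtain ⟨k3, k4⟩ := pow_split (N := Fintype.card K) ((c1.mul_right c2).mul_right c1.inv_right)
    (by rw [x_pow]; simp) (by rw [conj_pow, hp]) k1
  rw [Xi, mul_assoc, mul_inv_eq_iff_eq_mul.mp (hX2 (-1)), ← mul_assoc, ← Xa, mul_neg_one, ← sub_eq_add_neg] at k4
  have kc : ∀ y ∈ L, X (1 - ζ ^ 2) * (h * y * h⁻¹) * (X (1 - ζ ^ 2))⁻¹ ∈ L := fun y hy => by
    simpa only [mul_inv_rev, mul_assoc] using mul_mem (mul_mem k4 hy) (inv_mem k4)
  have l1 : T.Fx ⊓ S.XS {rD 22} ≤ L := fun y hy => by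
    have fx : symD4a.p (rD 22) = rD 22 := by decide +kernel
    obtain ⟨u, hu, rfl⟩ := (mem_one fx).mp hy
    obtain ⟨c, c0, h4, -⟩ := w1.exists_conj (rD 23)
    have h5 := h4 d
    rw [show w5 • rD 23 = rD 22 from (w2 _).trans (by decide +kernel)] at h5
    have h6 := (x_mem_Fx fx).mp (h5 ▸ mul_mem (mul_mem (nk 5) (le hd)) (inv_mem (nk 5)))
    rw [φf fx, hψ] at hu h6
    refine fixed_mem z1 z2 q2 (M := q ^ 2 + q + 1) (by rw [hK]; zify [show 1 ≤ q by omega]; ring) (A := par L _ (S.add _))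
      (fun t ht => ?_) (mem_par.mpr (h5 ▸ mul_mem (mul_mem (pow_mem k2 5) k3) (inv_mem (pow_mem k2 5))))
      (mul_ne_zero c0 d0) h6 hu
    have := kc _ (mem_par.mp ht)
    rw [hc, (cX (rD 22) (by decide +kernel) _ _).eq, mul_inv_cancel_right, show pr (rD 18) (rD 22) = 1 by decide +kernel,
      show pr (rD 13) (rD 22) = 1 by decide +kernel, show pr (rD 12) (rD 22) = 1 by decide +kernel, hψ, hψ] at this
    rw [mem_par]; convert this using 3; simp only [zpow_one]; ring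
  have l0 : ∀ v : Rt chevD4, symD4a.p v = v → ∀ u, ψ u = u → S.x v u ∈ T.Fx := fun v hv u hu =>
    (x_mem_Fx hv).mpr (by rw [φf hv, hu])
  have l2 : ∀ k (v : Rt chevD4), (fun r => [nD4 0, nD4 2, nD4 3, nD4 1].foldr rf r)^[k] v = rD 22 ∧
      symD4a.p v = v → ∀ u, ψ u = u → S.x v u ∈ L := fun k v hv u hu => by
    obtain ⟨w, h1, h2⟩ := n2 k
    exact FK_conj (pow_mem k2 k) (nk k) h1 (R' := {v}) (fun r hr => by rw [hr, h2, hv.1]; rfl) l1
      (Subgroup.mem_inf.mpr ⟨l0 v hv.2 u hu, S.x_mem (Set.mem_singleton v) u⟩)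
  obtain ⟨A, hA⟩ : ∃ A, A = T.Fx ⊓ S.XS {s | 0 < pr (rD 22) s} := ⟨_, rfl⟩
  have mA : ∀ r : Rt chevD4, 0 < pr (rD 22) r → ∀ t, S.x r t ∈ S.XS {s | 0 < pr (rD 22) s} := fun r h => S.x_mem h
  have XA : ∀ t, X t ∈ A := fun t => hA ▸ ⟨le (hX t), hXe t ▸ mul_mem (mA _ (by decide +kernel) _)
    (mul_mem (mA _ (by decide +kernel) _) (mA _ (by decide +kernel) _))⟩
  have YA : ∀ t, Y t ∈ A := fun t => hA ▸ ⟨by
    have := three_mem (T := T) (r := rD 17) (s := rD 20) (v := rD 21) (by decide +kernel) (by decide +kernel) (by decide +kernel)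
      (S.commute_nil (by decide +kernel)) (S.commute_nil (by decide +kernel)) (t := t) (by
        rw [hT, hT, hT, show sgn (bit gED4a (rD 21)) 1 = -1 by decide +kernel, show sgn (bit gED4a (rD 20)) 1 = 1 by decide +kernel,
          show sgn (bit gED4a (rD 17)) 1 = -1 by decide +kernel]; simp [ψψ])
    rwa [hYd, tr3, T.f_x, T.f_x, show symD4a.p (rD 17) = rD 20 by decide +kernel, show symD4a.p (rD 20) = rD 21 by decide +kernel],
    hYe t ▸ mul_mem (mA _ (by decide +kernel) _) (mul_mem (mA _ (by decide +kernel) _) (mA _ (by decide +kernel) _))⟩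
  have cm : ∀ a ∈ A, ∀ y ∈ A, a⁻¹ * y⁻¹ * a * y ∈ L := fun a ha y hy => by
    rw [hA] at ha hy
    exact l1 ⟨T.Fx.mul_mem (T.Fx.mul_mem (T.Fx.mul_mem (T.Fx.inv_mem ha.1) (T.Fx.inv_mem hy.1)) ha.1) hy.1,
      comm_pr (by decide +kernel) ha.2 hy.2⟩
  have Pa : ∀ {a b a' b'}, Y a * X b ∈ L → Y a' * X b' ∈ L → Y (a + a') * X (b + b') ∈ L := fun {a b a' b'} h1 h2 => by
    convert mul_mem (mul_mem h1 (cm _ (XA b) _ (inv_mem (YA a')))) h2 using 1
    rw [Xa, Ya]; group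
  have Pg : ∀ {a b}, Y a * X b ∈ L → Y (ζ⁻¹ * (ψ ζ * ψ (ψ ζ)) * a) * X (ζ ^ 2 * b) ∈ L := fun {a b} h1 => by
    have := kc _ h1
    rw [← conj_mul (b := h), hX2, hY2] at this
    have h2 := cm _ (mul_mem (YA (ζ⁻¹ * (ψ ζ * ψ (ψ ζ)) * a)) (XA (ζ ^ 2 * b))) _ (inv_mem (XA (1 - ζ ^ 2)))
    convert mul_mem this (inv_mem h2) using 1
    group
  have Ps : ∀ l, ψ l = l → ∀ {a b}, Y a * X b ∈ L → Y (l * a) * X (l * b) ∈ L := fun l hl a b h1 => by
    by_cases e : l = 0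
    · simp [e, X0, Y0, one_mem]
    have h2 := S.h_mem_of ψ (l2 0 (rD 22) (by decide +kernel)) (l2 3 _ (by decide +kernel)) hl
    have h4 := S.h_mem_of ψ (l0 (rD 22) (by decide +kernel)) (l0 _ (by decide +kernel)) hl
    have := mul_mem (mul_mem h2 h1) (inv_mem h2)
    rwa [← conj_mul, hXd, hYd, tr3_conj h4 (S.x_mem_grp _ _), tr3_conj h4 (S.x_mem_grp _ _), S.h_conj _ e, S.h_conj _ e,
      show pr (rD 22) (rD 17) = 1 by decide +kernel, show pr (rD 22) (rD 18) = 1 by decide +kernel, zpow_one, ← hXd, ← hYd] at this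
  have l3 : ∀ t, X t ∈ L := by
    have a := hc (rD 14) (ζ * (ψ ζ * ψ (ψ ζ)))
    rw [show pr (rD 18) (rD 14) = -1 by decide +kernel, show pr (rD 13) (rD 14) = -1 by decide +kernel,
      show pr (rD 12) (rD 14) = -1 by decide +kernel, zpow_neg_one, zpow_neg_one, zpow_neg_one, ← mul_inv, ← mul_inv,
      inv_mul_cancel₀ (mul_ne_zero ζ0 (mul_ne_zero ζ1 ζ2))] at a
    have b := kc _ (l2 4 (rD 14) (by decide +kernel) (ζ * (ψ ζ * ψ (ψ ζ))) (by simp [ψψ]; ring))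
    have c0 : 1 - ζ ^ 2 ≠ 0 := fun e => hz (by linear_combination -(1 + ζ ^ 2) * e)
    generalize 1 - ζ ^ 2 = c at b c0
    rw [a, ← MulAut.conj_apply, hXe, map_mul, map_mul, MulAut.mul_apply, MulAut.mul_apply,
      conj1' (v := rD 15) (C := 1) (by decide +kernel), map_mul, conj1' (v := rD 16) (C := 1) (by decide +kernel),
      conj1' (v := rD 17) (C := 1) (by decide +kernel), map_mul, map_mul, map_mul,
      conj1' (v := rD 19) (C := -1) (by decide +kernel), conj1' (v := rD 21) (C := -1) (by decide +kernel),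
      conj1' (v := rD 20) (C := -1) (by decide +kernel), conj1' (v := rD 22) (C := -1) (by decide +kernel)] at b
    simp only [Int.cast_one, Int.cast_neg, one_mul, mul_one, neg_mul, mul_assoc] at b
    have e : ∀ t u v y z, S.x (rD 21) t * (S.x (rD 15) u * (S.x (rD 20) v * (S.x (rD 17) y * z))) =
        S.x (rD 15) u * (S.x (rD 17) y * (S.x (rD 20) v * S.x (rD 21) t) * (S.x (rD 23) (u * t) * z)) := fun t u v y z => by
      have c1 := S.commute_nil (r := rD 20) (s := rD 17) (by decide +kernel) v y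
      have c2 : Commute (S.x (rD 21) t * S.x (rD 23) (u * t)) (S.x (rD 20) v * S.x (rD 17) y) :=
        ((S.commute_nil (by decide +kernel) _ _).mul_left (S.commute_nil (by decide +kernel) _ _)).mul_right
          ((S.commute_nil (by decide +kernel) _ _).mul_left (S.commute_nil (by decide +kernel) _ _))
      rw [← mul_assoc, S.comm_of (l := [((rD 23 : ℕ), -1, 1, 1)]) (by decide +kernel), List.map_cons, List.map_nil, wd_cons, wd_nil,
        mul_one, show ((-1 : ℤ) : K) * (-u) ^ 1 * t ^ 1 = u * t by simp, mul_assoc (S.x (rD 15) u), mul_assoc (S.x (rD 15) u),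
        ← mul_assoc (S.x (rD 20) v), ← mul_assoc (_ * _), c2.eq, c1.eq]
      simp only [mul_assoc]
    rw [mul_mem_cancel_left (l2 4 (rD 14) (by decide +kernel) 1 (map_one _)), e, ← mul_assoc, ← mul_assoc, ← mul_assoc,
      mul_mem_cancel_right (mul_mem (l2 5 (rD 23) (by decide +kernel) _ (by simp [ψψ]; ring))
        (l2 0 (rD 22) (by decide +kernel) _ (by simp [ψψ]; ring)))] at b
    replace b : tr3 T (S.x (rD 19) (-c)) * tr3 T (S.x (rD 17) (ψ c * ψ (ψ c))) ∈ L := by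
      rw [← hYd, hYe, tx _ (rD 16) (rD 15) (-1) 1 (by decide +kernel)]
      convert b using 1; simp [ψψ, mul_assoc, mul_comm (ψ _) c]
    obtain ⟨a1, -, h4, -⟩ := w1.exists_conj (rD 19)
    obtain ⟨a2, a0, h5, -⟩ := w1.exists_conj (rD 17)
    have h6 := mul_mem (mul_mem (pow_mem k2 5) b) (inv_mem (pow_mem k2 5))
    rw [← conj_mul, tr3_conj (nk 5) (S.x_mem_grp _ _), tr3_conj (nk 5) (S.x_mem_grp _ _), h4, h5,
      show w5 • rD 19 = rD 17 from (w2 _).trans (by decide +kernel),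
      show w5 • rD 17 = rD 18 from (w2 _).trans (by decide +kernel), ← hXd, ← hYd] at h6
    have χ1 : ζ ^ 2 - ζ⁻¹ * (ψ ζ * ψ (ψ ζ)) ≠ 0 := fun e => by
      have e1 := congrArg ψ e
      have e2 := congrArg ψ e1
      simp only [map_sub, map_pow, map_mul, map_inv₀, map_zero, ψψ] at e1 e2
      grind
    have χ2 : ζ ^ 2 - ψ (ζ⁻¹ * (ψ ζ * ψ (ψ ζ))) ≠ 0 := fun e => by
      have e1 := congrArg ψ e
      have e2 := congrArg ψ e1
      simp only [map_sub, map_pow, map_mul, map_inv₀, map_zero, ψψ] at e e1 e2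
      grind
    have χ3 : ζ ^ 2 - ψ (ψ (ζ⁻¹ * (ψ ζ * ψ (ψ ζ)))) ≠ 0 := fun e => by
      have e1 := congrArg ψ e
      have e2 := congrArg ψ e1
      simp only [map_sub, map_pow, map_mul, map_inv₀, map_zero, ψψ] at e e1 e2
      grind
    generalize ζ⁻¹ * (ψ ζ * ψ (ψ ζ)) = χ at *
    have h7 := Pa (Pa (Pg (Pg (Pg h6))) (Ps (-(χ + ψ χ + ψ (ψ χ))) (by simp [ψψ]; ring) (Pg (Pg h6))))
      (Pa (Ps (χ * ψ χ + ψ χ * ψ (ψ χ) + ψ (ψ χ) * χ) (by simp [ψψ]; ring) (Pg h6))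
        (Ps (-(χ * ψ χ * ψ (ψ χ))) (by simp [ψψ]; ring) h6))
    replace h7 : Y 0 * X ((ζ ^ 2 - χ) * (ζ ^ 2 - ψ χ) * (ζ ^ 2 - ψ (ψ χ)) * (a2 * (ψ c * ψ (ψ c)))) ∈ L := by
      convert h7 using 3 <;> ring
    rw [Y0, one_mul] at h7
    refine all_mem z3 (A := par L X Xa) (fun t ht => ?_) h7 (by simp [χ1, χ2, χ3, a0, c0])
    simpa [Y0, mem_par] using Pg (a := 0) (b := t) (by simpa [Y0, mem_par] using ht)
  obtain ⟨w, h1, h2⟩ := n2 3
  refine gen.trans (iSup_le fun a => ?_)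
  fin_cases a
  · refine FK_neg (pow_mem k2 3) (nk 3) h1 J0_D4 (by simp only [h2]; decide +kernel) fun y hy => ?_
    obtain ⟨t, rfl⟩ := (o0 y).mp hy
    exact l3 t
  · refine FK_neg (pow_mem k2 3) (nk 3) h1 J1_D4 (by simp only [h2]; decide +kernel) fun y hy => ?_
    obtain ⟨t, ht, rfl⟩ := (o1 y).mp hy
    exact l2 4 _ (by decide +kernel) t ht

end Cfsg.Agent.Chev.CV
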