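import Mathlib
import Cfsg.Agent.Pres.CV3

/-! Two generators for the large Ree groups. -/

set_option autoImplicit false
set_option linter.unusedSectionVars false
set_option maxRecDepth 100000

namespace Cfsg.Agent.Chev.CV

open Cfsg.Lie StSys Cfsg.Agent.BN Tw
open Cfsg.Agent.Pres (exists_prim_sq mulR mem_mulR pow_split two_gen_of two_gen_map)

attribute [local instance] good2F4

variable {K : Type*} [Field K] [Fintype K]

theorem two_2F4 {m : ℕ} (hm : 1 ≤ m) (hK : Fintype.card K = 2 ^ (2 * m + 1)) :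
    ∃ f : Fin 2 → twistedF4 K (2 ^ m), Subgroup.closure (Set.range f) = ⊤ := by
  obtain ⟨C⟩ := exists_CF4 hK
  haveI := C.char
  obtain ⟨ζ, ζ0, -, z2, -⟩ := exists_prim_sq K
  have l0 : ζ * C.θ ζ ≠ 0 := mul_ne_zero ζ0 ((map_ne_zero _).mpr ζ0)
  have l1 : C.θ (ζ * C.θ ζ) ≠ 0 := (map_ne_zero _).mpr l0
  obtain ⟨n, n1, n2⟩ := cox_n C.isTw [nF4 0, nF4 3, nF4 1, nF4 2, nF4 1, nF4 2] (by decide +kernel)
  have hh := C.Fx_inf_le (hh_mem gl_R3 C.φ_pow (i := nF4 2) (j := nF4 1) (π_F4 2) (π_F4 1) l0 (by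
    rw [← C.φ_pow, ← C.φ_pow, C.φ2 (by decide +kernel), C.φ1 (by decide +kernel), C.inv]))
  rw [← C.φ_pow, C.φ1 (by decide +kernel)] at hh
  have h3 := gl_R3 (D := chevF4) (F := K)
  have gen := C.gen
  have o0 := C.o0.1
  have o1 := C.o1.1
  have le := C.isTw.le
  have pos := C.isTw.pos 1
  have bp := C.b2p
  have bm := C.b2m.word_mem C.hθ' C.inv 1 0
  have bn : IsB2 C.T C.θ C.θ' (rF4 34) (rF4 26) (rF4 36) (rF4 42) :=
    ⟨by decide +kernel, by decide +kernel, by decide +kernel, by decide +kernel,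
      C.φ2 (by decide +kernel), C.φ1 (by decide +kernel), C.φ2 (by decide +kernel),
      C.φ1 (by decide +kernel), b2_comm _ (C := -1) (C' := 1) (by decide +kernel) (by decide),
      commute_nil _ (by decide +kernel)⟩
  have hA := C.b2_mem_Xm 1 0
  have inv' := C.inv'
  have J1 := J1_F4
  rw [show sim (nF4 1) = rF4 27 by decide +kernel, show sim (nF4 2) = rF4 25 by decide +kernel] at o1 hh bp bm hA J1
  rw [show ng (rF4 27) = rF4 20 by decide +kernel, show ng (rF4 25) = rF4 22 by decide +kernel] at bm hA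
  rw [show sim (nF4 3) = rF4 24 by decide +kernel, show sim (nF4 0) = rF4 33 by decide +kernel] at o0
  obtain ⟨θ, θ', T, ch, hθ, hθ', inv, hT⟩ := C
  dsimp only at *
  clear hθ hT ch
  generalize twistedF4 K (2 ^ m) = E at *
  generalize glSys chevF4 K = S at *
  have nk : ∀ k, n ^ k ∈ T.Fx := fun k => pow_mem (le n1) k
  have hc := S.conj_hh (rF4 25) (rF4 27) l0 l1
  have hp : (S.h (rF4 25) (ζ * θ ζ) * S.h (rF4 27) (θ (ζ * θ ζ))) ^ Fintype.card K =
      S.h (rF4 25) (ζ * θ ζ) * S.h (rF4 27) (θ (ζ * θ ζ)) := by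
    rw [Commute.mul_pow (h3.h_comm _ _ l0 l1), h_pow h3 _ l0, h_pow h3 _ l1, FiniteField.pow_card, FiniteField.pow_card]
  generalize S.h (rF4 25) (ζ * θ ζ) * S.h (rF4 27) (θ (ζ * θ ζ)) = h at hh hc hp
  obtain ⟨u, hu⟩ : ∃ u : K → K → _, ∀ t v, u t v =
    S.x (rF4 27) (θ t) * (S.x (rF4 25) t * (S.x (rF4 28) (θ t * t + v) * S.x (rF4 30) (θ' v))) := ⟨_, fun _ _ => rfl⟩
  have ua : ∀ t v t' v', u t v * u t' v' = u (t + t') (v + v' + θ t * t') := fun t v t' v' => by
    have c1 : ∀ a b c d, Commute (S.x (rF4 28) a * S.x (rF4 30) b) (S.x (rF4 27) c * S.x (rF4 25) d) := fun a b c d =>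
      ((S.commuteP 2 (by decide +kernel) _ _).mul_left (S.commuteP 2 (by decide +kernel) _ _)).mul_right
        ((S.commuteP 2 (by decide +kernel) _ _).mul_left (S.commuteP 2 (by decide +kernel) _ _))
    have c2 : ∀ a b c, Commute (S.x (rF4 28) a * S.x (rF4 30) b) (S.x (rF4 25) c) := fun a b c =>
      (S.commuteP 2 (by decide +kernel) _ _).mul_left (S.commuteP 2 (by decide +kernel) _ _)
    have c3 : ∀ a b c d, S.x (rF4 28) a * S.x (rF4 30) b * (S.x (rF4 28) c * S.x (rF4 30) d) =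
        S.x (rF4 28) (a + c) * S.x (rF4 30) (b + d) := fun a b c d => by
      rw [(bp.cd _ _).symm.mul_mul_mul_comm, S.add, S.add]
    rw [hu, hu, hu, ← mul_assoc (S.x (rF4 27) _), ← mul_assoc (S.x (rF4 27) _), (c1 _ _ _ _).mul_mul_mul_comm, c3,
      mul_assoc (S.x (rF4 27) _), ← mul_assoc (S.x (rF4 25) _), bp.comm, mul_assoc (_ * _) (_ * _), (c2 _ _ _).eq,
      mul_assoc (S.x (rF4 27) (θ t')), ← mul_assoc (S.x (rF4 25) t), ← S.add, ← mul_assoc (S.x (rF4 27) (θ t)), ← S.add,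
      mul_assoc, mul_assoc, c3, ← map_add]
    congr 3
    · congr 1; rw [map_add]; linear_combination (-θ t * t') * CharTwo.two_eq_zero (R := K)
    · congr 1; simp only [map_add, map_mul, inv, ← hθ']; ring
  have u0 : u 0 0 = 1 := by simp [hu]
  have uh : ∀ t, h * u t 0 * h⁻¹ = u (ζ * t) 0 := fun t => by
    have e : θ (ζ * θ ζ) ^ 2 = θ ζ ^ 2 * ζ := by rw [← hθ', map_mul, inv, hθ']
    have := (map_ne_zero θ).mpr ζ0
    rw [hu, hu, map_zero, S.x_zero, mul_one, mul_one, ← conj_mul, ← conj_mul, hc, hc, hc, pr_self, pr_self,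
      show pr (rF4 25) (rF4 27) = -1 by decide +kernel, show pr (rF4 27) (rF4 25) = -2 by decide +kernel,
      show pr (rF4 25) (rF4 28) = 1 by decide +kernel, show pr (rF4 27) (rF4 28) = 0 by decide +kernel]
    simp only [zpow_neg, zpow_ofNat, e, map_mul θ ζ t]
    congr 1
    · congr 1; field_simp
    · congr 2 <;> field_simp; ring
  simp only [← hu] at o1
  have uJ : ∀ t v, u t v ∈ T.Fx ⊓ S.Xp (orbF4.J 1) := fun t v => (o1 _).mpr ⟨t, v, rfl⟩
  obtain ⟨w2, w1, w3⟩ := n2 2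
  refine two_gen_of (mul_mem (mul_mem (mul_mem (pow_mem n1 2) (pos (uJ 1 0))) (inv_mem (pow_mem n1 2))) hh) n1
    fun L k1 k2 => ?_
  have c1 : Commute (n ^ 2 * u 1 0 * (n ^ 2)⁻¹) h :=
    comm_XS (R := {r | pr (rF4 25) r = 0 ∧ pr (rF4 27) r = 0}) (fun r hr t => by rw [hc, hr.1, hr.2]; simp)
      (w1.conj_mem (fun r hr => by
        have := (J1 r).mpr hr
        rw [w3, Set.mem_setOf_eq]; clear hr; revert r; decide +kernel) (Subgroup.mem_inf.mp (uJ 1 0)).2)
  obtain ⟨k3, k4⟩ := pow_split (N := Fintype.card K) c1 (by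
    rw [conj_pow, hK, show 2 * m + 1 = 2 + (2 * m - 1) by omega, pow_add, pow_mul, show 2 ^ 2 = 2 * 2 by rfl, pow_mul,
      pow_two (u 1 0), ua, pow_two (u _ _), ua]
    simp [CharTwo.add_self_eq_zero, u0]) hp k1
  rw [mul_mem_cancel_right (inv_mem (pow_mem k2 2)), mul_mem_cancel_left (pow_mem k2 2)] at k3
  have l2 : ∀ t, u t 0 ∈ L := fun t => by
    by_cases t0 : t = 0
    · rw [t0, u0]; exact one_mem _
    obtain ⟨k, rfl⟩ := z2 t t0
    clear t0
    induction k with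
    | zero => simpa using k3
    | succ k ih => rw [pow_succ', ← uh]; exact mul_mem (mul_mem k4 ih) (inv_mem k4)
  have l3 : T.Fx ⊓ S.Xp (orbF4.J 1) ≤ L := fun y hy => by
    obtain ⟨t, v, rfl⟩ := (o1 y).mp hy
    by_cases v0 : v = 0
    · exact v0 ▸ l2 t
    have := (map_ne_zero θ').mpr v0
    convert mul_mem (l2 t) (mul_mem (l2 (v ^ 2 / θ' v)) (l2 (v ^ 2 / θ' v))) using 1
    rw [ua, ua, CharTwo.add_self_eq_zero, map_div₀, map_pow, ← hθ', inv']
    congr 1
    · simp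
    · field_simp; simp
  obtain ⟨w, h1, h2⟩ := n2 4
  have l4 := FK_neg (pow_mem k2 4) (nk 4) h1 J1 (by simp only [h2]; decide +kernel) l3
  refine gen.trans (iSup_le fun a => ?_)
  fin_cases a
  swap
  · exact l4
  refine FK_neg (pow_mem k2 4) (nk 4) h1 J0_F4 (by simp only [h2]; decide +kernel) fun y hy => ?_
  obtain ⟨t, rfl⟩ := (o0 y).mp hy
  have a := l4 (Subgroup.mem_sup_right (Subgroup.mem_inf.mpr ⟨bm, hA⟩))
  obtain ⟨w', h4, h5⟩ := n2 3
  have b := FK_conj (pow_mem k2 3) (nk 3) h4 (R' := {r | r ∈ [rF4 34, rF4 26, rF4 36, rF4 42]}) (fun r hr => (J1 _).mp (by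
    rw [h5]; revert r; decide +kernel)) l3 (Subgroup.mem_inf.mpr ⟨bn.word_mem hθ' inv t 0, mul_mem (S.x_mem (by simp) _)
      (mul_mem (S.x_mem (by simp) _) (mul_mem (S.x_mem (by simp) _) (S.x_mem (by simp) _)))⟩)
  have c0 : ∀ r b : Rt chevF4, (b ≠ r ∧ b ≠ ng r ∧ chevF4.commTerms r b = []) → ∀ t u,
      MulAut.conj (S.x r t) (S.x b u) = S.x b u := fun r b h t u => (S.commute_nil h t u).mul_inv_cancel
  have c := mul_mem (inv_mem b) (mul_mem (mul_mem a b) (inv_mem a))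
  simp only [map_zero, S.x_zero, mul_one] at c
  rw [← MulAut.conj_apply] at c
  simp only [map_mul, MulAut.mul_apply, c0 (rF4 19) (rF4 34) (by decide +kernel), c0 (rF4 19) (rF4 26) (by decide +kernel),
    c0 (rF4 19) (rF4 36) (by decide +kernel), c0 (rF4 22) (rF4 34) (by decide +kernel), c0 (rF4 22) (rF4 36) (by decide +kernel),
    c0 (rF4 20) (rF4 26) (by decide +kernel), c0 (rF4 20) (rF4 24) (by decide +kernel), c0 (rF4 20) (rF4 36) (by decide +kernel),
    conj1' (r := rF4 22) (b := rF4 26) (v := rF4 24) (C := -1) (by decide +kernel),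
    conj1' (r := rF4 20) (b := rF4 34) (v := rF4 33) (C := 1) (by decide +kernel)] at c
  rw [mul_assoc (S.x (rF4 26) t), (S.commute_nil (r := rF4 24) (by decide +kernel) _ _).eq, mul_assoc (S.x (rF4 34) _),
    (Commute.mul_right (S.commute_nil (r := rF4 33) (by decide +kernel) _ _) (Commute.mul_right
      (S.commute_nil (by decide +kernel) _ _) (S.commute_nil (by decide +kernel) _ _))).eq] at c
  simpa [mul_assoc, CharTwo.neg_eq] using c

end Cfsg.Agent.Chev.CV
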