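import Mathlib
import Cfsg.Agent.Pres.TG2
import Cfsg.Agent.Orth.Class
import Cfsg.Agent.Orth.Simple

/-! Two generators for the orthogonal groups. -/

set_option autoImplicit false
set_option linter.unusedSectionVars false

namespace Cfsg.Agent.Pres.RU

open Cfsg.Agent.Orth Module QuadraticMap

variable {F V : Type*} [Field F] [AddCommGroup V] [Module F V] [FiniteDimensional F V]
  {Q : QuadraticForm F V} {K : Subgroup (OG Q)}

/-- the Eichler transformations in `K` with centre `e` -/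
def AO (K : Subgroup (OG Q)) (e : V) : AddSubgroup V where
  carrier := {w | Q e = 0 → polar Q e w = 0 ∧ eich Q e w ∈ K}
  zero_mem' _ := ⟨by simp, by rw [eich_zero_right]; exact K.one_mem⟩
  add_mem' h h' he := ⟨by rw [polar_add_right, (h he).1, (h' he).1, add_zero], by
    rw [← eich_mul he (h he).1 (h' he).1]; exact K.mul_mem (h he).2 (h' he).2⟩
  neg_mem' h he := ⟨by rw [polar_neg_right, (h he).1, neg_zero], by
    rw [← eich_inv he (h he).1]; exact K.inv_mem (h he).2⟩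

theorem AO_self (e : V) (c : F) : c • e ∈ AO K e := fun he =>
  ⟨by simp [he], by rw [eich_smul_self he]; exact K.one_mem⟩

theorem AO_map {g : OG Q} (hg : g ∈ K) {e w : V} (hw : w ∈ AO K e) : g.1 w ∈ AO K (g.1 e) := fun he => by
  rw [OG.map_Q] at he
  exact ⟨by rw [OG.map_polar, (hw he).1], by
    rw [← eich_conj]; exact K.mul_mem (K.mul_mem hg (hw he).2) (K.inv_mem hg)⟩

theorem AO_iff {g : OG Q} (hg : g ∈ K) {e w : V} : g.1 w ∈ AO K (g.1 e) ↔ w ∈ AO K e :=
  ⟨fun h => by simpa using AO_map (K.inv_mem hg) h, AO_map hg⟩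

theorem AO_smul {e w : V} {c : F} (c0 : c ≠ 0) (hw : w ∈ AO K (c • e)) : c • w ∈ AO K e := fun he => by
  obtain ⟨h1, h2⟩ := hw (by simp [q_smul, he])
  have h3 : polar Q e w = 0 := by simpa [c0] using h1
  exact ⟨by simp [h3], by rwa [← eich_smul_left he h3]⟩

theorem AO_act {e e' w w' : V} (he' : Q e' = 0) (h : polar Q e' e = 0) (hw : w ∈ AO K e) (hw' : w' ∈ AO K e')
    (h' : polar Q w' e = 0) : (polar Q w' w - Q w' * polar Q e' w) • e' - polar Q e' w • w' ∈ AO K e := by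
  obtain ⟨h1, h2⟩ := hw' he'
  have := AO_map h2 hw
  rw [eich_apply_of_orth he' h1 h h', eich_apply he' h1] at this
  convert (AO K e).sub_mem this hw using 1
  abel

theorem om_fin [Finite F] (hQ : ND Q) (hn : 5 ≤ finrank F V) {e : V} (he : Q e = 0)
    (h : ∀ w, polar Q e w = 0 → w ∈ AO K e) {g : OG Q} (hg : g ∈ K) (hge : polar Q e (g.1 e) ≠ 0) :
    commutator (OG Q) ≤ K := by
  have inv : ∀ g ∈ K, ∀ x, (∀ w, polar Q x w = 0 → w ∈ AO K x) → ∀ w, polar Q (g.1 x) w = 0 → w ∈ AO K (g.1 x) :=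
    fun g hg x hx w hw => by
      rw [← OG.apply_inv_self g w] at hw ⊢
      exact AO_map hg (hx _ (by rwa [OG.map_polar] at hw))
  have opp : ∀ u y x, Q u = 0 → Q y = 0 → Q x = 0 → polar Q u y ≠ 0 → polar Q u x ≠ 0 →
      (∀ w, polar Q u w = 0 → w ∈ AO K u) → (∀ w, polar Q y w = 0 → w ∈ AO K y) →
      ∀ w, polar Q x w = 0 → w ∈ AO K x := fun u y x hu hy hx h1 h2 f1 f2 => by
    obtain ⟨v, hv, e⟩ := eich_to_plane (f := (polar Q u y)⁻¹ • y) hu (by simp [q_smul, hy])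
      (by rw [p_smul_right, inv_mul_cancel₀ h1]) h2
    rw [hx, zero_div, zero_smul, zero_add, smul_smul] at e
    have c0 : polar Q u x * (polar Q u y)⁻¹ ≠ 0 := mul_ne_zero h2 (inv_ne_zero h1)
    have := inv _ (K.inv_mem (f1 v hv hu).2) ((polar Q u x * (polar Q u y)⁻¹) • y) (fun w hw => by
      have := AO_smul (e := (polar Q u x * (polar Q u y)⁻¹) • y) (w := (polar Q u x * (polar Q u y)⁻¹) • w)
        (inv_ne_zero c0) (by
          rw [inv_smul_smul₀ c0]; exact f2 _ (by rw [p_smul_left] at hw; rw [p_smul_right, hw]))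
      rwa [inv_smul_smul₀ c0] at this)
    rwa [← e, OG.inv_apply_self] at this
  have h1 : ∀ x, Q x = 0 → polar Q e x ≠ 0 → ∀ w, polar Q x w = 0 → w ∈ AO K x := fun x hx h2 =>
    opp e (g.1 e) x he (by simp [he]) hx hge h2 h (inv g hg e h)
  rw [hQ.commutator_eq_eichGroup (good_of_five_le hn) (by omega), eichGroup, Subgroup.closure_le]
  rintro _ ⟨x, w, rfl⟩
  by_cases hx : Q x = 0 ∧ polar Q x w = 0
  swap
  · rw [eich_of_not hx]; exact K.one_mem
  by_cases x0 : x = 0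
  · rw [x0, eich_zero_left]; exact K.one_mem
  by_cases h2 : polar Q e x = 0
  swap
  · exact (h1 x hx.1 h2 w hx.2 hx.1).2
  obtain ⟨y, y1, y2⟩ : ∃ y, polar Q e y ≠ 0 ∧ polar Q x y ≠ 0 := by
    obtain ⟨y, hy⟩ := hQ.exists_polar_one x0
    by_cases h3 : polar Q e y = 0
    · by_cases h4 : polar Q x (g.1 e) = 0
      · exact ⟨y + g.1 e, by simpa [h3] using hge, by simp [h4, hy]⟩
      · exact ⟨_, hge, h4⟩
    · exact ⟨y, h3, by simp [hy]⟩
  have r1 : Q (y - (Q y / polar Q e y) • e) = 0 := by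
    rw [q_sub, q_smul, p_smul_right, he, polar_comm Q y e]; field_simp; ring
  have r2 : polar Q e (y - (Q y / polar Q e y) • e) ≠ 0 := by simpa [he] using y1
  exact (opp _ e x r1 he hx.1 (by rwa [polar_comm]) (by
    rw [polar_comm]; simpa [polar_comm Q x e, h2] using y2) (h1 _ r1 r2) h w hx.2 hx.1).2

theorem om_core [Finite F] (hQ : ND Q) (hn : 5 ≤ finrank F V) {w h : OG Q} {e d d' : V} {r : ℕ} (hr : 3 ≤ r)
    (he : Q e = 0) (w1 : w.1 d = d') (w2 : w.1 d' = d) (ed : polar Q e d = 0) (ed' : polar Q e d' = 0)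
    (hp : ∀ j < 2 * r, j ≠ r → polar Q e ((w ^ j).1 e) = 0) (hγ : polar Q e ((w ^ r).1 e) ≠ 0)
    (hd : polar Q d d ≠ 0 ∨ polar Q d d' ≠ 0)
    (hs : ∀ W : Submodule F V, (∀ j < 2 * r, j ≠ r → (w ^ j).1 e ∈ W) → d ∈ W → d' ∈ W → ∀ v, polar Q e v = 0 → v ∈ W)
    (h0 : h.1 e = e) (h1 : h.1 ((w ^ r).1 e) = (w ^ r).1 e) (h2 : h.1 d' = d') {μ ν : F} (ν0 : ν ≠ 0)
    (h3 : h.1 ((w ^ 2).1 e) = μ • (w ^ 2).1 e + ν • (w ^ 1).1 e)
    (h4 : ∀ S : AddSubgroup F, (∀ l, h.1 ((w ^ 1).1 e) = l • (w ^ 1).1 e → ∀ t ∈ S, l * t ∈ S) → 1 ∈ S → ∀ t, t ∈ S)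
    (hw : w ∈ K) (hh : h ∈ K) (hK : eich Q e d ∈ K) : commutator (OG Q) ≤ K := by
  have e0 : e ≠ 0 := by rintro rfl; simp at hγ
  have hx : ∀ i j : ℕ, (w ^ i).1 ((w ^ j).1 e) = (w ^ (i + j)).1 e := fun i j => by rw [pow_add, OG.mul_apply]
  have hQx : ∀ i : ℕ, Q ((w ^ i).1 e) = 0 := fun i => by rw [OG.map_Q, he]
  have hpp : ∀ i j, j < 2 * r → j ≠ r → polar Q ((w ^ (i + j)).1 e) ((w ^ i).1 e) = 0 := fun i j a b => by
    rw [← hx, OG.map_polar, polar_comm, hp j a b]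
  have hD : ∀ i : ℕ, ((w ^ i).1 d = d ∧ (w ^ i).1 d' = d') ∨ ((w ^ i).1 d = d' ∧ (w ^ i).1 d' = d) := fun i => by
    induction i with
    | zero => simp
    | succ i ih => rw [pow_succ, OG.mul_apply, OG.mul_apply, w1, w2]; tauto
  have hxd : ∀ i : ℕ, polar Q ((w ^ i).1 e) d = 0 ∧ polar Q ((w ^ i).1 e) d' = 0 := fun i => by
    rcases hD i with ⟨a, b⟩ | ⟨a, b⟩
    · exact ⟨by rw [← a, OG.map_polar, ed], by rw [← b, OG.map_polar, ed']⟩
    · exact ⟨by rw [← b, OG.map_polar, ed'], by rw [← a, OG.map_polar, ed]⟩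
  have hxd' : ∀ i j : ℕ, polar Q ((w ^ i).1 e) ((w ^ j).1 d) = 0 := fun i j => by
    rcases hD j with ⟨a, -⟩ | ⟨a, -⟩ <;> rw [a]
    exacts [(hxd i).1, (hxd i).2]
  have s0 : ∀ c : F, c • d ∈ AO K e := h4 ((AO K e).comap (LinearMap.toSpanSingleton F V d).toAddMonoidHom)
    (fun l hl t ht => by
      have l0 : l ≠ 0 := by rintro rfl; simp [OG.apply_eq_zero, e0] at hl
      have := AO_map hh (AO_map hw (show t • d ∈ AO K e from ht))
      rw [pow_one] at hl
      rw [hl, map_smul, map_smul, w1, h2] at this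
      have := AO_smul l0 this
      rw [smul_smul, ← w1, ← map_smul, AO_iff hw] at this
      exact this)
    (fun _ => ⟨by simpa using ed, by simpa using hK⟩)
  have s1 : ∀ (i : ℕ) (c : F), c • (w ^ i).1 d ∈ AO K ((w ^ i).1 e) := fun i c => by
    rw [← map_smul]; exact AO_map (pow_mem hw i) (s0 c)
  have st : ∀ {x y u v : V}, Q y = 0 → polar Q y x = 0 → polar Q y u = 0 → polar Q x v = 0 → polar Q v u ≠ 0 →
      (∀ c : F, c • u ∈ AO K x) → v ∈ AO K y → ∀ t : F, t • y ∈ AO K x := by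
    intro x y u v a1 a2 a3 a4 a5 a6 a7 t
    have := AO_act a1 a2 (a6 (t / polar Q v u)) a7 (by rwa [polar_comm])
    simpa [a3, a5] using this
  have dd : polar Q d' d' = polar Q d d := by rw [← w1, OG.map_polar]
  have T : ∀ i, (i = 0 ∨ i = r) → ∀ t : F, t • (w ^ 1).1 e ∈ AO K ((w ^ i).1 e) := by
    intro i hi
    have p : ∀ j, (j = 1 ∨ j = 2) → polar Q ((w ^ j).1 e) ((w ^ i).1 e) = 0 := fun j hj => by
      rcases hi with rfl | rfl
      · simpa using hpp 0 j (by omega) (by omega)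
      · have := hpp j (i - j) (by omega) (by omega)
        rwa [show j + (i - j) = i by omega, polar_comm] at this
    have : polar Q ((w ^ 1).1 d) ((w ^ i).1 d) ≠ 0 ∨ polar Q ((w ^ 2).1 d) ((w ^ i).1 d) ≠ 0 := by
      rw [pow_two, pow_one, OG.mul_apply, w1, w2]
      rcases hD i with ⟨a, -⟩ | ⟨a, -⟩ <;> rw [a]
      · rw [polar_comm Q d' d]; exact hd.symm
      · rwa [dd]
    rcases this with a | a
    · exact st (hQx _) (p 1 (by simp)) (hxd' _ _) (hxd' _ _) a (s1 i) (by simpa using s1 1 1)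
    · have b := st (hQx _) (p 2 (by simp)) (hxd' _ _) (hxd' _ _) a (s1 i) (by simpa using s1 2 1)
      intro t
      have c := AO_map hh (b (t / ν))
      rw [show h.1 ((w ^ i).1 e) = (w ^ i).1 e by rcases hi with rfl | rfl; exacts [h0, h1], map_smul, h3] at c
      convert (AO K _).sub_mem c (b (t / ν * μ)) using 1
      rw [smul_add, smul_smul, smul_smul, div_mul_cancel₀ _ ν0]; abel
  have s2 : ∀ c : F, c • d' ∈ AO K e := fun c => by
    have γ0 : polar Q ((w ^ (r + 1)).1 e) ((w ^ 1).1 e) ≠ 0 := by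
      rwa [add_comm, ← hx, OG.map_polar, polar_comm]
    have a := AO_act (hQx (r + 1)) (hpp r 1 (by omega) (by omega))
      (T r (Or.inr rfl) (polar Q ((w ^ (r + 1)).1 e) ((w ^ 1).1 e))⁻¹) (s1 (r + 1) c)
      (by rw [p_smul_left, polar_comm, hxd', mul_zero])
    have b := fun t => AO_map (pow_mem hw r) (T 0 (Or.inl rfl) t)
    simp only [map_smul, hx, add_zero] at b
    rw [p_smul_right _ _ ((w ^ (r + 1)).1 e), inv_mul_cancel₀ γ0, one_smul] at a
    have := (fun κ u (h : κ • (w ^ (r + 1)).1 e - u ∈ _) => (AO K _).sub_mem (b κ) h) _ _ a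
    rwa [sub_sub_cancel, pow_succ, OG.mul_apply, w1, ← map_smul, AO_iff (pow_mem hw r)] at this
  have s3 : ∀ i : ℕ, d ∈ AO K ((w ^ i).1 e) ∧ d' ∈ AO K ((w ^ i).1 e) := fun i => by
    have a := AO_map (pow_mem hw i) (s0 1)
    have b := AO_map (pow_mem hw i) (s2 1)
    rw [one_smul] at a b
    rcases hD i with ⟨c, c'⟩ | ⟨c, c'⟩ <;> rw [c] at a <;> rw [c'] at b
    exacts [⟨a, b⟩, ⟨b, a⟩]
  let W : Submodule F V :=
    { carrier := {x | ∀ c : F, c • x ∈ AO K e}
      zero_mem' := fun c => by simp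
      add_mem' := fun h h' c => by rw [smul_add]; exact add_mem (h c) (h' c)
      smul_mem' := fun c x h c' => by rw [smul_smul]; exact h _ }
  refine om_fin hQ hn he (fun v hv => ?_) (pow_mem hw r) hγ
  simpa using hs W (fun j a b => by
    rcases hd with c | c
    · exact st (hQx j) (by rw [polar_comm, hp j a b]) (hxd j).1 ed c s0 (s3 j).1
    · exact st (hQx j) (by rw [polar_comm, hp j a b]) (hxd j).1 ed' (by rwa [polar_comm]) s0 (s3 j).2) s0 s2 v hv 1

theorem torus_pow {e f : V} (he : Q e = 0) (hf : Q f = 0) (hef : polar Q e f = 1) {a : F} (ha : a ≠ 0) (n : ℕ) :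
    torus Q e f a ^ n = torus Q e f (a ^ n) := by
  have hfe : polar Q f e = 1 := by rw [polar_comm]; exact hef
  induction n with
  | zero => exact OG.ext fun x => by simp [torus_apply he hf hef]
  | succ n ih =>
    refine OG.ext fun x => ?_
    rw [pow_succ, ih, OG.mul_apply, torus_apply he hf hef (pow_ne_zero _ ha), torus_apply he hf hef (pow_ne_zero _ ha),
      torus_apply he hf hef ha]
    simp only [polar_add_right, p_smul_right, p_self, he, hf, hef, hfe]
    match_scalars <;> field_simp <;> ring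

theorem om_h [Fintype F] (hQ : ND Q) (hg : Orth.Good F V) {a b a' b' : V} (ha : Q a = 0) (hb : Q b = 0) (ha' : Q a' = 0)
    (hb' : Q b' = 0) (p1 : polar Q a b = 0) (p2 : polar Q a a' = 1) (p3 : polar Q a b' = 0) (p4 : polar Q b a' = 0)
    (p5 : polar Q b b' = 1) (p6 : polar Q a' b' = 0) :
    ∃ h ∈ commutator (OG Q), h ^ (Fintype.card F ^ 2) = h ∧
      (∀ v, polar Q a v = 0 → polar Q b v = 0 → polar Q a' v = 0 → polar Q b' v = 0 → h.1 v = v) ∧
      (∃ μ ν : F, ν ≠ 0 ∧ h.1 b = μ • b + ν • a) ∧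
      ∀ S : AddSubgroup F, (∀ l, h.1 a = l • a → ∀ t ∈ S, l * t ∈ S) → 1 ∈ S → ∀ t, t ∈ S := by
  have q1 := polar_comm Q b a ▸ p1
  have q2 := polar_comm Q a' a ▸ p2
  have q3 := polar_comm Q b' a ▸ p3
  have q4 := polar_comm Q a' b ▸ p4
  have q5 := polar_comm Q b' b ▸ p5
  have q6 := polar_comm Q b' a' ▸ p6
  obtain ⟨ζ, ζ0, h1, h2, h3⟩ := exists_prim_sq F
  by_cases hz : ζ ^ 2 = 1
  · have k : ∀ x, (eich Q a b' * eich Q b a').1 x =
        x + (polar Q b' x + polar Q a' x) • a + polar Q a' x • b - polar Q b x • a' + (polar Q b x - polar Q a x) • b' := by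
      intro x
      rw [OG.mul_apply, eich_apply hb p4, eich_apply ha p3]
      simp only [polar_add_right, polar_sub_right, p_smul_right, ha', hb', p1, p2, q5, q6]
      module
    have k3 : ∀ x, ((eich Q a b' * eich Q b a') ^ 3).1 x = (4 : F) • ((eich Q a b' * eich Q b a') ^ 2).1 x -
        (4 : F) • (eich Q a b' * eich Q b a').1 x + x := by
      intro x
      simp only [pow_succ, pow_zero, one_mul]
      generalize eich Q a b' * eich Q b a' = h at k
      simp only [OG.mul_apply, k, polar_add_right, polar_sub_right, p_smul_right, p_self, ha, hb, ha', hb', p1, p2, p3,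
        p4, p5, p6, q1, q2, q3, q4, q5, q6]
      module
    refine ⟨eich Q a b' * eich Q b a', mul_mem (hQ.eich_mem_commutator hg _ _) (hQ.eich_mem_commutator hg _ _), ?_,
      fun v a1 a2 a3 a4 => by rw [k]; simp [a1, a2, a3, a4], ⟨1, 1, one_ne_zero, by rw [k]; simp [q4, q5, p1, hb]⟩,
      fun S _ h4 t => ?_⟩
    · generalize eich Q a b' * eich Q b a' = h at k3
      have := orderOf_le_of_pow_eq_one two_pos hz
      have c := FiniteField.cast_card_eq_zero F
      rcases show Fintype.card F = 2 ∨ Fintype.card F = 3 by have := Fintype.one_lt_card (α := F); omega with e | e <;>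
        rw [e] at c ⊢
      · have : h ^ 3 = 1 := OG.ext fun x => by
          rw [k3, show (4 : F) = 0 by linear_combination 2 * c]; simp
        rw [show 2 ^ 2 = 3 + 1 by rfl, pow_succ, this, one_mul]
      · have : h ^ 4 = 1 := OG.ext fun x => by
          have e4 : (4 : F) = 1 := by linear_combination c
          rw [pow_succ', OG.mul_apply, k3, e4, one_smul, one_smul, map_add, map_sub, ← OG.mul_apply, ← pow_succ', k3, e4,
            ← OG.mul_apply, ← pow_two, one_smul, one_smul, OG.one_apply]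
          abel
        rw [show 3 ^ 2 = 4 * 2 + 1 by rfl, pow_succ, pow_mul, this, one_pow, one_mul]
    · simpa using h3 (mulR (RingHom.id F) S) (hz ▸ one_mem _) t 1 h4
  · have f1 : Q (a' + b') = 0 := by rw [q_add, ha', hb', p6]; simp
    have f2 : polar Q a (a' + b') = 1 := by simp [p2, p3]
    have z0 := pow_ne_zero 2 ζ0
    refine ⟨torus Q a (a' + b') (ζ ^ 2), hQ.refl_mul_refl_mem_commutator' ?_ ?_ ?_, ?_,
      fun v a1 a2 a3 a4 => by simp [torus_apply ha f1 f2 z0, a1, a3, a4],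
      ⟨1, ζ ^ 2 - 1, sub_ne_zero.2 hz, by simp [torus_apply ha f1 f2 z0, p1, q4, q5]⟩, fun S h4 h5 t => ?_⟩
    · simp [q_add, ha, f1, f2]
    · rwa [q_hyp_comb ha f1 f2]
    · rw [q_hyp_comb ha f1 f2, q_add, ha, f1, f2]; exact ⟨ζ, by ring⟩
    · rw [torus_pow ha f1 f2 z0, FiniteField.pow_card_pow]
    · simpa using h3 (mulR (RingHom.id F) S) (h4 _ (by simp [torus_apply ha f1 f2 z0, q2, q3, ha, sub_smul])) t 1 h5

theorem om_cyc (hQ : ND Q) (hg : Orth.Good F V) {e f : ℕ → V} {r : ℕ} (he : ∀ i, Q (e i) = 0) (hf : ∀ i, Q (f i) = 0)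
    (hee : ∀ i j, polar Q (e i) (e j) = 0) (hff : ∀ i j, polar Q (f i) (f j) = 0)
    (hef : ∀ i j, i ≠ j → polar Q (e i) (f j) = 0) (h1 : ∀ i < r, polar Q (e i) (f i) = 1) (k : ℕ) (hk : k < r) :
    ∃ c ∈ commutator (OG Q), (∀ i < k, c.1 (e i) = e (i + 1) ∧ c.1 (f i) = f (i + 1)) ∧
      (∃ s : F, s ≠ 0 ∧ c.1 (f k) = s • f 0) ∧
      ∀ v, (∀ i ≤ k, polar Q (e i) v = 0 ∧ polar Q (f i) v = 0) → c.1 v = v := by
  have hfe : ∀ i j, i ≠ j → polar Q (f i) (e j) = 0 := fun i j h => by rw [polar_comm, hef j i h.symm]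
  have h2 : ∀ i < r, polar Q (f i) (e i) = 1 := fun i h => by rw [polar_comm, h1 i h]
  induction k with
  | zero => exact ⟨1, one_mem _, by simp, ⟨1, one_ne_zero, by simp⟩, by simp⟩
  | succ k ih =>
    obtain ⟨c, c1, c2, ⟨s, s0, c3⟩, c4⟩ := ih (by omega)
    have a1 := hef k (k + 1) (by omega)
    have a2 := hef (k + 1) k (by omega)
    have n : ∀ x, (eich Q (e k) (-f (k + 1)) * eich Q (e (k + 1)) (f k) * eich Q (e k) (-f (k + 1))).1 x =
        x - (polar Q (f k) x + polar Q (f (k + 1)) x) • e k + (polar Q (f k) x - polar Q (f (k + 1)) x) • e (k + 1)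
          - (polar Q (e k) x + polar Q (e (k + 1)) x) • f k + (polar Q (e k) x - polar Q (e (k + 1)) x) • f (k + 1) := by
      intro x
      simp only [OG.mul_apply, eich_apply (he k) (show polar Q (e k) (-f (k + 1)) = 0 by simp [a1]),
        eich_apply (he _) a2, polar_add_right, polar_sub_right, p_smul_right, polar_neg_left, polar_neg_right,
        QuadraticMap.map_neg, hf, hee, hff, a1, a2, hfe k (k + 1) (by omega), hfe (k + 1) k (by omega), h1 k (by omega),
        h1 _ hk, h2 k (by omega), h2 _ hk]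
      module
    have m := fun u v => hQ.eich_mem_commutator hg u v
    refine ⟨c * _, mul_mem c1 (mul_mem (mul_mem (m (e k) (-f (k + 1))) (m (e (k + 1)) (f k))) (m (e k) (-f (k + 1)))),
      fun i hi => ?_, ⟨-s, neg_ne_zero.2 s0, ?_⟩, fun v hv => ?_⟩
    · rw [OG.mul_apply, OG.mul_apply c, n, n]
      rcases show i < k ∨ i = k by omega with h | rfl
      · simpa [hee, hff, hef k i (by omega), hef (k + 1) i (by omega), hfe k i (by omega), hfe (k + 1) i (by omega)]
          using c2 i h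
      · simp only [hee, hff, a2, hfe (i + 1) i (by omega), h1 i (by omega), h2 i (by omega)]
        simpa using ⟨c4 _ fun j hj => ⟨hee _ _, hfe _ _ (by omega)⟩, c4 _ fun j hj => ⟨hef _ _ (by omega), hff _ _⟩⟩
    · rw [OG.mul_apply, n]; simp [hff, a1, h1 _ hk, c3]; abel
    · rw [OG.mul_apply, n]; simpa [hv k (by omega), hv (k + 1) le_rfl] using c4 v fun i hi => hv i (by omega)

theorem om_two [Fintype F] (hQ : ND Q) (hn : 5 ≤ finrank F V) {e f : ℕ → V} {r : ℕ} (hr : 3 ≤ r)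
    (he : ∀ i, Q (e i) = 0) (hf : ∀ i, Q (f i) = 0) (hee : ∀ i j, polar Q (e i) (e j) = 0)
    (hff : ∀ i j, polar Q (f i) (f j) = 0) (hef : ∀ i j, i ≠ j → polar Q (e i) (f j) = 0)
    (h1 : ∀ i < r, polar Q (e i) (f i) = 1) {z d : V} (hz : Q z ≠ 0) (hzd : polar Q z d ≠ 0)
    (ez : ∀ i < r, polar Q (e i) z = 0 ∧ polar Q (f i) z = 0) (ed : ∀ i < r, polar Q (e i) d = 0 ∧ polar Q (f i) d = 0)
    (hs : ∀ W : Submodule F V, (∀ i < r, e i ∈ W ∧ f i ∈ W) → z ∈ W → d ∈ W → ∀ v, v ∈ W) :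
    ∃ g : Fin 2 → commutator (OG Q), Subgroup.closure (Set.range g) = ⊤ := by
  have hg := good_of_five_le hn
  have hfe : ∀ i j, i ≠ j → polar Q (f i) (e j) = 0 := fun i j h => by rw [polar_comm, hef j i h.symm]
  have h2 : ∀ i < r, polar Q (f i) (e i) = 1 := fun i h => by rw [polar_comm, h1 i h]
  obtain ⟨k, rfl⟩ : ∃ k, r = k + 1 := ⟨r - 1, by omega⟩
  obtain ⟨c, c1, c2, ⟨s, s0, c3⟩, c4⟩ := om_cyc hQ hg he hf hee hff hef h1 k (by omega)
  have qz := q_hyp_comb (he k) (hf k) (h1 k (by omega)) (Q z)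
  have hw := mul_mem c1 (hQ.refl_mul_refl_mem_commutator (qz.symm ▸ hz) qz)
  have ze : ∀ i ≤ k, (refl Q z).1 (e i) = e i := fun i hi => refl_apply_of_orth (by rw [polar_comm, (ez i (by omega)).1])
  have zf : ∀ i ≤ k, (refl Q z).1 (f i) = f i := fun i hi => refl_apply_of_orth (by rw [polar_comm, (ez i (by omega)).2])
  have w0 : ∀ v, (∀ i < k + 1, polar Q (e i) v = 0 ∧ polar Q (f i) v = 0) →
      (c * (refl Q (e k + Q z • f k) * refl Q z)).1 v = (refl Q z).1 v := fun v hv => by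
    have : ∀ i ≤ k, polar Q (e i) ((refl Q z).1 v) = 0 ∧ polar Q (f i) ((refl Q z).1 v) = 0 := fun i hi => by
      simp [refl_apply, hv i (by omega), ez i (by omega)]
    rw [OG.mul_apply, OG.mul_apply, refl_apply_of_orth (by simp [this k le_rfl]), c4 _ this]
  have w1 : ∀ i < k, (c * (refl Q (e k + Q z • f k) * refl Q z)).1 (e i) = e (i + 1) := fun i hi => by
    rw [OG.mul_apply, OG.mul_apply, ze i hi.le, refl_apply_of_orth (by simp [hee, hfe k i hi.ne']), (c2 i hi).1]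
  have w2 : ∀ i < k, (c * (refl Q (e k + Q z • f k) * refl Q z)).1 (f i) = f (i + 1) := fun i hi => by
    rw [OG.mul_apply, OG.mul_apply, zf i hi.le, refl_apply_of_orth (by simp [hff, hef k i hi.ne']), (c2 i hi).2]
  have w3 : (c * (refl Q (e k + Q z • f k) * refl Q z)).1 (e k) = (-(Q z * s)) • f 0 := by
    rw [OG.mul_apply, OG.mul_apply, ze k le_rfl, refl_apply, qz]
    simp [hee, h2 k, hz, c3, smul_smul]
  have μ0 : -(Q z * s) ≠ 0 := by simp [hz, s0]
  generalize c * (refl Q (e k + Q z • f k) * refl Q z) = w at hw w0 w1 w2 w3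
  generalize -(Q z * s) = μ at w3 μ0
  have x1 : ∀ i ≤ k, (w ^ i).1 (e 0) = e i := fun i hi => by
    induction i with
    | zero => simp
    | succ i ih => rw [pow_succ', OG.mul_apply, ih (by omega), w1 i hi]
  have x2 : ∀ i ≤ k, (w ^ (k + 1 + i)).1 (e 0) = μ • f i := fun i hi => by
    induction i with
    | zero => rw [pow_succ', OG.mul_apply, x1 k le_rfl, w3]
    | succ i ih => rw [← add_assoc, pow_succ', OG.mul_apply, ih (by omega), map_smul, w2 i hi]
  have x3 : (w ^ (k + 1)).1 (e 0) = μ • f 0 := x2 0 (by omega)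
  obtain ⟨h, k1, k2, k3, ⟨m, ν, ν0, k4⟩, k5⟩ := om_h hQ hg (he 1) (he 2) (hf 1) (hf 2) (hee _ _) (h1 1 (by omega))
    (hef _ _ (by omega)) (hef _ _ (by omega)) (h1 2 (by omega)) (hff _ _)
  have ed' : ∀ i < k + 1, polar Q (e i) ((refl Q z).1 d) = 0 ∧ polar Q (f i) ((refl Q z).1 d) = 0 := fun i hi => by
    simp [refl_apply, ed i hi, ez i hi]
  have k6 : ∀ v, (∀ i < k + 1, polar Q (e i) v = 0 ∧ polar Q (f i) v = 0) → h.1 v = v := fun v hv =>
    k3 v (hv 1 (by omega)).1 (hv 2 (by omega)).1 (hv 1 (by omega)).2 (hv 2 (by omega)).2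
  have k7 : h.1 (e 0) = e 0 := k3 _ (hee _ _) (hee _ _) (hfe _ _ (by omega)) (hfe _ _ (by omega))
  have d0 := (ed 0 (by omega)).1
  refine two_gen_of (mul_mem (hQ.eich_mem_commutator hg (e 0) d) k1) hw fun K g1 g2 => ?_
  obtain ⟨g3, g4⟩ := pow_split (N := Fintype.card F ^ 2) (by
      rw [commute_iff_eq, eq_comm, ← mul_inv_eq_iff_eq_mul, eich_conj, k7, k6 d ed]) (by
      have : ∀ n : ℕ, eich Q (e 0) d ^ n = eich Q (e 0) ((n : F) • d) := fun n => by
        induction n with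
        | zero => simp
        | succ n ih => rw [pow_succ, ih, eich_mul (he 0) (by simp [d0]) d0, Nat.cast_succ, add_smul, one_smul]
      simp [this, FiniteField.cast_card_eq_zero]) k2 g1
  refine om_core hQ hn hr (he 0) (w0 d ed) (by rw [w0 _ ed', ← OG.mul_apply, refl_mul_self, OG.one_apply]) d0
    (ed' 0 (by omega)).1 (fun j a b => ?_) (by rw [x3]; simp [μ0, h1]) ?_ (fun W a b b' v hv => ?_) k7
    (by rw [x3, map_smul, k3 _ (hef _ _ (by omega)) (hef _ _ (by omega)) (hff _ _) (hff _ _)]) (k6 _ ed') ν0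
    (by rw [x1 1 (by omega), x1 2 (by omega), k4]) (by rwa [x1 1 (by omega)]) g2 g4 g3
  · rcases show j ≤ k ∨ ∃ i, j = k + 1 + i from (le_or_gt j k).imp id fun h => ⟨j - (k + 1), by omega⟩ with h | ⟨i, rfl⟩
    · rw [x1 j h, hee]
    · rw [x2 i (by omega), p_smul_right, hef _ _ (by omega), mul_zero]
  · by_contra hc
    push Not at hc
    have := hc.2
    rw [refl_apply, polar_sub_right, hc.1, p_smul_right, polar_comm Q d z] at this
    simp [hz, hzd] at this
  · have hz' : z ∈ W := by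
      have := W.smul_mem ((Q z)⁻¹ * polar Q z d)⁻¹ (W.sub_mem b b')
      rwa [refl_apply, sub_sub_cancel, inv_smul_smul₀ (mul_ne_zero (inv_ne_zero hz) hzd)] at this
    have i1 : ∀ u ∈ W, polar Q (e 0) u = 0 → u ∈ (W ⊓ LinearMap.ker (polarBilin Q (e 0))) ⊔ Submodule.span F {f 0} :=
      fun u h h' => Submodule.mem_sup_left ⟨h, h'⟩
    obtain ⟨u, hu, _, hc, rfl⟩ := Submodule.mem_sup.1 (hs _ (fun i hi => ⟨i1 _ (x1 i (by omega) ▸ a i (by omega) (by omega))
      (hee _ _), by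
        rcases Nat.eq_zero_or_pos i with rfl | h
        · exact Submodule.mem_sup_right (Submodule.mem_span_singleton_self _)
        · refine i1 _ ?_ (hef _ _ h.ne)
          rw [← W.smul_mem_iff μ0, ← x2 i (by omega)]
          exact a _ (by omega) (by omega)⟩) (i1 _ hz' (ez 0 (by omega)).1) (i1 _ b d0) v)
    obtain ⟨t, rfl⟩ := Submodule.mem_span_singleton.1 hc
    have h3 : polar Q (e 0) u = 0 := hu.2
    have : t = 0 := by simpa [h3, h1] using hv
    simpa [this] using hu.1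

theorem om_fin_two {ι : Type} [Fintype ι] [DecidableEq ι] [Fintype F] {Q : QuadraticForm F (ι → F)} (hQ : ND Q)
    (hn : 5 ≤ Fintype.card ι) {r m : ℕ} (hr : 3 ≤ r) (hm : r ≤ m) (j : Fin m ⊕ Fin m → ι)
    (hj : ∀ a, Q (Pi.single (j a) 1) = 0)
    (hp : ∀ a b, polar Q (Pi.single (j a) 1) (Pi.single (j b) 1) = if a = b.swap then 1 else 0)
    {z d : ι → F} (hz : Q z ≠ 0) (hzd : polar Q z d ≠ 0)
    (ez : ∀ a : Fin m, a.1 < r → polar Q (Pi.single (j (.inl a)) 1) z = 0 ∧ polar Q (Pi.single (j (.inr a)) 1) z = 0)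
    (ed : ∀ a : Fin m, a.1 < r → polar Q (Pi.single (j (.inl a)) 1) d = 0 ∧ polar Q (Pi.single (j (.inr a)) 1) d = 0)
    (hs : ∀ i, (∃ a : Fin m, a.1 < r ∧ (i = j (.inl a) ∨ i = j (.inr a))) ∨ ∃ s t : F, Pi.single i 1 = s • z + t • d) :
    ∃ a b : Cfsg.POmega F ⇑Q, Subgroup.closure ({a, b} : Set (Cfsg.POmega F ⇑Q)) = ⊤ := by
  refine two_gen_quot (om_two hQ (by simpa using hn) (e := fun i => if h : i < m then Pi.single (j (.inl ⟨i, h⟩)) 1 else 0)
    (f := fun i => if h : i < m then Pi.single (j (.inr ⟨i, h⟩)) 1 else 0) hr ?_ ?_ ?_ ?_ ?_ ?_ hz hzd ?_ ?_ ?_)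
    ⟨(omegaEquiv Q).symm⟩
  · intro i; split_ifs <;> simp [hj]
  · intro i; split_ifs <;> simp [hj]
  · intro i i'; split_ifs <;> simp [hp]
  · intro i i'; split_ifs <;> simp [hp]
  · intro i i' h; split_ifs <;> simp [hp, h]
  · intro i h; simp [hp, h.trans_le hm]
  · intro i h; simpa [h.trans_le hm] using ez ⟨i, h.trans_le hm⟩ h
  · intro i h; simpa [h.trans_le hm] using ed ⟨i, h.trans_le hm⟩ h
  · intro W h1 h2 h3 v
    rw [pi_eq_sum_univ' v]
    refine W.sum_mem fun i _ => W.smul_mem _ ?_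
    rcases hs i with ⟨a, h, rfl | rfl⟩ | ⟨s, t, h⟩
    · simpa using (h1 a h).1
    · simpa using (h1 a h).2
    · rw [h]; exact W.add_mem (W.smul_mem _ h2) (W.smul_mem _ h3)

end Cfsg.Agent.Pres.RU
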